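import Cfsg.Agent.H376.FC.AsmTwo
import Cfsg.Agent.H786.FC.Parts
import Cfsg.Agent.H466.FC.S00
import Cfsg.Agent.H393.FC.C2
import Cfsg.Agent.H245.FC.Part
import Cfsg.Agent.H195.FC.C4Full
import Cfsg.Agent.H173.FC.C6TwoOn
import Cfsg.Agent.H716.FC.C6Seven
import Cfsg.Agent.H245.FC.CyB
import Cfsg.Agent.H710.FC.COdd
import Cfsg.Agent.H10.FC.Fin
import Cfsg.Agent.H923.FC.RedCor
import Cfsg.Agent.H200.FC.Bridge
import Cfsg.Agent.H184.FC.C3aCor
import Cfsg.Agent.H716.FC.C6Four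
import Cfsg.Agent.H754.FC.Red
import Cfsg.Agent.H277.FC.SN

/-!
# S5764: the linear part from the parts (helper376)
-/

set_option autoImplicit false

namespace Cfsg.Agent.H376.FC

open Cfsg.Agent.H198.FC Cfsg.Agent.H786.FC

universe u v

theorem redCor : StmtRedCor.{u, v} :=
  H923.FC.stmtRedCor_of (fun _ _ _ _ _ _ _ S => H10.FC.stmtG4 S)

/-- the linear part from `StmtC3a` and `StmtC6` for `n = 4` -/
theorem thmL_rest (h3a : StmtC3a.{u, v}) (h64 : StmtC6On.{u, v} fun n => n = 4) : ThmL.{u, v} :=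
  thmL_of H466.FC.stmtS00 H393.FC.stmtC2 (stmtC3_of_parts h3a H245.FC.stmtC3b H245.FC.stmtC3c)
    (stmtC4Ne_of H195.FC.stmtC4)
    (stmtC6_of_parts H173.FC.stmtC6On_two H710.FC.stmtC6_three h64
      (fun K _ _ V _ _ _ S hS h2 hsol A r a hA hn => hn.elim
        (H710.FC.stmtC6_five K V S hS h2 hsol A r a hA)
        (fun h => H716.FC.stmtC6_ge7 K V S hS h2 hsol A r a hA (by omega)))
      (fun K _ _ V _ _ _ S hS h2 hsol A r a hA hn =>
        H716.FC.stmtC6_ge7 K V S hS h2 hsol A r a hA (by omega))) H754.FC.stmtRed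
    (stmtRedCorH_of redCor)
    (H200.FC.stmtBridge_of H277.FC.stmtSN) H200.FC.stmtBridge2

/-- **The linear part.** -/
theorem thmL_all : ThmL.{u, v} := thmL_rest H184.FC.stmtC3a H716.FC.stmtC6_four

end Cfsg.Agent.H376.FC
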